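import Cfsg.Agent.Lib.PG.Gen

set_option autoImplicit false
set_option maxRecDepth 100000
set_option Elab.async false
set_option exponentiation.threshold 100000

namespace Cfsg.Agent.Golay.H1603
open Cfsg.Agent.PG

noncomputable def n0 : Net :=
 (.cons 16 0x5020
 (.cons 8 0x800092
 (.cons 4 0x2000a04
 (.cons 2 0x21011312
 (.cons 1 0x10100504
 (.cons 2 0x20000002
 (.cons 4 0xc02
 (.cons 8 0x8000e4
 (.cons 16 0x5020
 .nil)))))))))

noncomputable def n1 : Net :=
 (.cons 16 0x9222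
 (.cons 8 0x900086
 (.cons 4 0x4090e06
 (.cons 2 0x211200
 (.cons 1 0x4514414
 (.cons 2 0x1020220
 (.cons 4 0x402020a
 (.cons 8 0x900052
 (.cons 16 0x9220
 .nil)))))))))

noncomputable def n2 : Net :=
 (.cons 16 0x2
 (.cons 8 0xd8
 (.cons 4 0xa000c01
 (.cons 2 0x32033020
 (.cons 1 0x1005501
 (.cons 2 0x2000000
 (.cons 4 0xa000c01
 (.cons 8 0xd8
 (.cons 16 0x2
 .nil)))))))))

noncomputable def A : List Net := [n0, n1, n2]

theorem hA : okA (2 ^ 5) A = true := by decide +kernel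

theorem hlen : A.length = 3 := rfl

def tr1 : List ℕ := [1, 0x102, 0x103, 0x104, 0x10204, 0x10304]

def ce1 : List (List (ℕ × ℕ)) := [[(1, 1), (3, 1)],
  [(2, 1), (4, 1)],
  [(0, 1), (5, 1)],
  [(5, 1), (0, 1)],
  [(3, 1), (1, 1)],
  [(4, 1), (2, 1)]]

noncomputable def cl1_l : List Claim := plainClaims 1 tr1 ce1

def cj0 : List ℕ := []

def reps0 : List Rep := [⟨1, [(0x102, 0x102), (0x104, 0x104)],
   [(1, 1, 1, 1)], 3⟩,
  ⟨0x100, [],
   [(1, 1, 0, 1),
    (0x103, 0x10304, 1, 0x103),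
    (0x102, 0x102, 1, 0x10304),
    (0x105, 0x104, 1, 0x104),
    (0x10503, 1, 2, 1),
    (0x10502, 0x103, 1, 0x102)], 1⟩,
  ⟨0x100020400, [(0x102, 0x103), (0x105, 0x10304)],
   [(1, 0x10204, 1, 1)], 3⟩]

noncomputable def cl0_l : List Claim := dcClaims 0 3 cj0 reps0

theorem cl1_0 : chk A 5 (cl1_l) = true := by decide +kernel

theorem ok1 : plainOK A 1 3 24 tr1 ce1 = true := by decide +kernel

theorem orb1 : orbCardB A 2 1 24 3 6 = true := by decide +kernel

theorem cl0_0 : chk A 5 (cl0_l) = true := by decide +kernel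

theorem ok0 : dcOK A 0 3 26 24 3 cj0 reps0 = true := by decide +kernel

theorem orb0 : orbCardB A 2 0 26 4 8 = true := by decide +kernel

theorem card2 : Nat.card (K A 3) = 1 := card_K_last A (le_of_eq hlen)

theorem cl1 : ∀ c ∈ cl1_l, Holds A c :=
  (chk_spec hA cl1_0)

theorem stab1 : StabIs A 1 24 3 := stabIs_plain hA ok1 cl1

theorem card1 : Nat.card (K A 1) = 6 := card_K_step hA stab1 orb1 card2

theorem cl0 : ∀ c ∈ cl0_l, Holds A c :=
  (chk_spec hA cl0_0)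

theorem stab0 : StabIs A 0 26 1 := stabIs_dc hA stab1 ok0 cl0

theorem card0 : Nat.card (K A 0) = 48 := card_K_step hA stab0 orb0 card1

theorem fixTriv0 {B : Set ℕ} (h0 : 26 ∈ B) (h1 : 24 ∈ B) : FixTriv (K A 0) B :=
  fixTriv_step stab0 h0 <| fixTriv_step stab1 h1 <| fixTriv_last A (le_of_eq hlen) B

theorem fixTriv1 {B : Set ℕ} (h1 : 24 ∈ B) : FixTriv (K A 1) B :=
  fixTriv_step stab1 h1 <| fixTriv_last A (le_of_eq hlen) B


end Cfsg.Agent.Golay.H1603
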